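import Cfsg.Agent.H41.C3TC.Kv.RTab

set_option autoImplicit false
set_option linter.all false
set_option Elab.async false

namespace Cfsg.Agent.H41.C3P

open Cfsg.Agent.H35

theorem tc3kv_rchk_40 : allR tc3kv_rf 20861 9 (40 * 2 ^ 9) = true := by decide +kernel

end Cfsg.Agent.H41.C3P
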