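import Cfsg.Agent.H41.C3TC.Kv.RChk0
import Cfsg.Agent.H41.C3TC.Kv.RChk1
import Cfsg.Agent.H41.C3TC.Kv.RChk2

set_option autoImplicit false
set_option linter.all false

namespace Cfsg.Agent.H41.C3P

open Cfsg.Agent.H35

theorem tc3kv_rall : ∀ p, p < 20861 → tc3kv_rf p = true := by
  apply allR_blocks tc3kv_rf 20861 9 41 _ (by decide)
  intro k hk
  interval_cases k
  · exact tc3kv_rchk_0
  · exact tc3kv_rchk_1
  · exact tc3kv_rchk_2
  · exact tc3kv_rchk_3
  · exact tc3kv_rchk_4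
  · exact tc3kv_rchk_5
  · exact tc3kv_rchk_6
  · exact tc3kv_rchk_7
  · exact tc3kv_rchk_8
  · exact tc3kv_rchk_9
  · exact tc3kv_rchk_10
  · exact tc3kv_rchk_11
  · exact tc3kv_rchk_12
  · exact tc3kv_rchk_13
  · exact tc3kv_rchk_14
  · exact tc3kv_rchk_15
  · exact tc3kv_rchk_16
  · exact tc3kv_rchk_17
  · exact tc3kv_rchk_18
  · exact tc3kv_rchk_19
  · exact tc3kv_rchk_20
  · exact tc3kv_rchk_21
  · exact tc3kv_rchk_22
  · exact tc3kv_rchk_23
  · exact tc3kv_rchk_24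
  · exact tc3kv_rchk_25
  · exact tc3kv_rchk_26
  · exact tc3kv_rchk_27
  · exact tc3kv_rchk_28
  · exact tc3kv_rchk_29
  · exact tc3kv_rchk_30
  · exact tc3kv_rchk_31
  · exact tc3kv_rchk_32
  · exact tc3kv_rchk_33
  · exact tc3kv_rchk_34
  · exact tc3kv_rchk_35
  · exact tc3kv_rchk_36
  · exact tc3kv_rchk_37
  · exact tc3kv_rchk_38
  · exact tc3kv_rchk_39
  · exact tc3kv_rchk_40

theorem tc3kv_circ_ok : circChk (fullW c3kv_rws c3kv_prels) tc3kv_circT 0 tc3kv_ccert = true := by decide +kernel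
theorem tc3kv_hc_ok : allR (fun c => hcChk tc3kv_rsw tc3kv_hc1T tc3kv_hc2T c) 3 2 0 = true := by decide +kernel
theorem tc3kv_h0 : RData.aord (tc3kv_rd.ent 0 1) = 0 := by decide +kernel

end Cfsg.Agent.H41.C3P
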