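import Cfsg.Agent.H41.C3TC.Kv.RTab

set_option autoImplicit false
set_option linter.all false
set_option Elab.async false

namespace Cfsg.Agent.H41.C3P

open Cfsg.Agent.H35

theorem tc3kv_rchk_0 : allR tc3kv_rf 20861 9 (0 * 2 ^ 9) = true := by decide +kernel
theorem tc3kv_rchk_1 : allR tc3kv_rf 20861 9 (1 * 2 ^ 9) = true := by decide +kernel
theorem tc3kv_rchk_2 : allR tc3kv_rf 20861 9 (2 * 2 ^ 9) = true := by decide +kernel
theorem tc3kv_rchk_3 : allR tc3kv_rf 20861 9 (3 * 2 ^ 9) = true := by decide +kernel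
theorem tc3kv_rchk_4 : allR tc3kv_rf 20861 9 (4 * 2 ^ 9) = true := by decide +kernel
theorem tc3kv_rchk_5 : allR tc3kv_rf 20861 9 (5 * 2 ^ 9) = true := by decide +kernel
theorem tc3kv_rchk_6 : allR tc3kv_rf 20861 9 (6 * 2 ^ 9) = true := by decide +kernel
theorem tc3kv_rchk_7 : allR tc3kv_rf 20861 9 (7 * 2 ^ 9) = true := by decide +kernel
theorem tc3kv_rchk_8 : allR tc3kv_rf 20861 9 (8 * 2 ^ 9) = true := by decide +kernel
theorem tc3kv_rchk_9 : allR tc3kv_rf 20861 9 (9 * 2 ^ 9) = true := by decide +kernel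
theorem tc3kv_rchk_10 : allR tc3kv_rf 20861 9 (10 * 2 ^ 9) = true := by decide +kernel
theorem tc3kv_rchk_11 : allR tc3kv_rf 20861 9 (11 * 2 ^ 9) = true := by decide +kernel
theorem tc3kv_rchk_12 : allR tc3kv_rf 20861 9 (12 * 2 ^ 9) = true := by decide +kernel
theorem tc3kv_rchk_13 : allR tc3kv_rf 20861 9 (13 * 2 ^ 9) = true := by decide +kernel
theorem tc3kv_rchk_14 : allR tc3kv_rf 20861 9 (14 * 2 ^ 9) = true := by decide +kernel
theorem tc3kv_rchk_15 : allR tc3kv_rf 20861 9 (15 * 2 ^ 9) = true := by decide +kernel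
theorem tc3kv_rchk_16 : allR tc3kv_rf 20861 9 (16 * 2 ^ 9) = true := by decide +kernel
theorem tc3kv_rchk_17 : allR tc3kv_rf 20861 9 (17 * 2 ^ 9) = true := by decide +kernel
theorem tc3kv_rchk_18 : allR tc3kv_rf 20861 9 (18 * 2 ^ 9) = true := by decide +kernel
theorem tc3kv_rchk_19 : allR tc3kv_rf 20861 9 (19 * 2 ^ 9) = true := by decide +kernel

end Cfsg.Agent.H41.C3P
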